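import Cfsg.Agent.H0.QM23.D
set_option maxRecDepth 100000
set_option Elab.async false
namespace H0.QM23
open H0 BN 
theorem defs_ok : DefsOK R.p defs 21 := defsOK_of_chk c16
universe u
variable {G : Type u} [Group G] [Finite G] (m0 : Model G) (h0 : m0.R = H0.MM23.R)
noncomputable def m : Model G := m0.ext (lg := nat_lit 5) (N := nat_lit 32) (l := H0.MM23.nl) h0 nl nl_ok 21 rfl defs defs_ok (by decide +kernel)
theorem mR : (m m0 h0).R = R := rfl
variable (hb : m0.pst [5, 4, 3, 2, 1, 0] = ⊥) (hc : Nat.card G = 10200960)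
include h0 hb hc
theorem base : (m m0 h0).pst [5, 4, 3, 2, 1, 0] = ⊥ := hb
omit hb hc in
theorem ch2_ok : (m m0 h0).ChainOK ch2 [] := ((m m0 h0).chain_cons [0, 1, 2, 0, 3] (Model.via _ (mR m0 h0) (fun R => Model.fixP R [] [[21], [24], [25], [26]]) c4) (Model.via _ (mR m0 h0) (fun R => Model.growP R [[21], [24], [25], [26]] [0, 1, 2, 0, 3] 1 16) c5) ((m m0 h0).chain_cons [0, 1] (Model.via _ (mR m0 h0) (fun R => Model.fixP R [1] [[21, 22], [24, 26]]) c2) (Model.via _ (mR m0 h0) (fun R => Model.growP R [[21, 22], [24, 26]] [0, 1] 2 4) c3) ((m m0 h0).chain_cons [0] (Model.via _ (mR m0 h0) (fun R => Model.fixP R [2, 1] [[23, 24, 25, 26]]) c0) (Model.via _ (mR m0 h0) (fun R => Model.growP R [[23, 24, 25, 26]] [0] 3 2) c1) ((m m0 h0).chain_nil _))))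
theorem pb2 : PBound G (2 ^ (0 + 1)) :=
  (m m0 h0).pbound C2 21 (k := 79695) (K := 2) (e := 1) hc (lt_step_all (a := 0) (k := 45) (lt_zero_all _) ((m m0 h0).rules_of (base m0 h0 hb hc) (Model.via _ (mR m0 h0) (fun R => rulesB R [5, 4, 3, 2, 1, 0] (fun i => sh 21 (C2.L i)) (fun i => sh 21 (C2.R i)) 0 45) c6))) (ch2_ok m0 h0) (by decide +kernel) tests2 (all_take_done (all_take_step (all_take_zero _ tests2) (allL_spec c7)) (by decide +kernel))
    av2 FS2 YS2 rows2 (all_take_done (all_take_step (all_take_zero _ rows2) (allL_spec c8)) (by decide +kernel)) c9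
omit hb hc in
theorem ch3_ok : (m m0 h0).ChainOK ch3 [] := ((m m0 h0).chain_cons [0, 1, 0, 1] (Model.via _ (mR m0 h0) (fun R => Model.fixP R [] [[31], [32]]) c10) (Model.via _ (mR m0 h0) (fun R => Model.growP R [[31], [32]] [0, 1, 0, 1] 2 9) c11) ((m m0 h0).chain_nil _))
theorem pb3 : PBound G (3 ^ (0 + 1)) :=
  (m m0 h0).pbound C3 31 (k := 1133440) (K := 2) (e := 1) hc (lt_step_all (a := 0) (k := 5) (lt_zero_all _) ((m m0 h0).rules_of (base m0 h0 hb hc) (Model.via _ (mR m0 h0) (fun R => rulesB R [5, 4, 3, 2, 1, 0] (fun i => sh 31 (C3.L i)) (fun i => sh 31 (C3.R i)) 0 5) c12))) (ch3_ok m0 h0) (by decide +kernel) tests3 (all_take_done (all_take_step (all_take_zero _ tests3) (allL_spec c13)) (by decide +kernel))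
    av3 FS3 YS3 rows3 (all_take_done (all_take_step (all_take_zero _ rows3) (allL_spec c14)) (by decide +kernel)) c15
theorem bound (Γ : Type u) [Group Γ] [Finite Γ] (σ : Γ →* G) (hσ : Cfsg.IsStemExtension σ) : Nat.card σ.ker ∣ 1 :=
  card_ker_dvd (M := 23) (k := 7) (L := [2, 3]) hc (by decide +kernel) (ex_bound (pb2 m0 h0 hb hc) (by decide) (ex_bound (pb3 m0 h0 hb hc) (by decide) ex_bound_nil)) Γ σ hσ
end H0.QM23
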